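import Cfsg.Agent.Lib.PGroups.SLFreeCriteria
import Cfsg.Agent.Lib.ThompsonJ.SylowTools

/-!
Groups without `SL(2,p)` sections are `p`-stable in the action sense.
-/

set_option autoImplicit false
open scoped commutatorElement
open Cfsg

namespace CfsgLib.PGroups

variable {G : Type*} [Group G] [Finite G] {p : ℕ} [Fact p.Prime]

theorem SLFree.isPStableOnSection (h : SLFree p G) (hp2 : p ≠ 2) (K N : Subgroup G) [K.Normal]
    [N.Normal] (hK : IsPGroup p K) : IsPStableOnSection p K N := by
  intro a ha
  let π := QuotientGroup.mk' N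
  have hπ : Function.Surjective π := QuotientGroup.mk'_surjective N
  have : (K.map π).Normal := Subgroup.Normal.map inferInstance π hπ
  have hq : ⁅⁅K.map π, Subgroup.zpowers (π a)⁆, Subgroup.zpowers (π a)⁆ = ⊥ := by
    rw [← MonoidHom.map_zpowers, ← Subgroup.map_commutator, ← Subgroup.map_commutator,
      Subgroup.map_eq_bot_iff, QuotientGroup.ker_mk']
    exact ha
  have hmem := (h.of_surjective π hπ).isPStableOn hp2 (K.map π) (hK.map π) (π a) hq
  let C := Subgroup.centralizer ((K.map π : Subgroup (G ⧸ N)) : Set (G ⧸ N))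
  let D₀ := (pCore p ((G ⧸ N) ⧸ C)).comap (QuotientGroup.mk' C)
  refine ⟨D₀.comap π, inferInstance, Subgroup.comap_mono (fun x hx => ?_), ?_, hmem⟩
  · rw [Subgroup.mem_comap, QuotientGroup.mk'_apply, (QuotientGroup.eq_one_iff x).2 hx]
    exact one_mem _
  · obtain ⟨k, hk⟩ := ThompsonJ.relIndex_comap_pCore (p := p) C
    refine ⟨k, ?_⟩
    show (C.comap π).relIndex (D₀.comap π) = p ^ k
    rw [Subgroup.relIndex_comap, Subgroup.map_comap_eq_self_of_surjective hπ, hk]

/-- **`p`-stability in the action sense from the absence of `SL(2,p)` sections.** -/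
theorem SLFree.isActionPStable (h : SLFree p G) (hp2 : p ≠ 2) : IsActionPStable p G := by
  refine ⟨fun V _ hV => h.isPStableOn hp2 V fun x => ⟨1, Subtype.ext ?_⟩, ?_, fun S V _ hV => ?_⟩
  · rw [pow_one]; exact hV.2 x x.2
  · exact h.isPStableOnSection hp2 _ _ (Cores.isPGroup_pCore p G)
  · refine (h.subgroup _).isPStableOn hp2 V (IsPGroup.of_injective
      (S.2.to_le (hV.trans (Subgroup.map_subtype_le _)))
      (V.equivMapOfInjective _ (Subgroup.normalizer (thompsonSubgroupOf p (S : Subgroup G) : Set G)).subtype_injective).toMonoidHom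
      (MulEquiv.injective _))

end CfsgLib.PGroups
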