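import Cfsg.Agent.Lib.PGroups.SLFreeCriteria
import Cfsg.Agent.Lib.ThompsonJ.Quadratic

/-!
`p`-stability of a faithful action on an elementary abelian subgroup.
-/

set_option autoImplicit false
open scoped commutatorElement
open Cfsg

namespace CfsgLib.PGroups

variable {G : Type*} [Group G] [Finite G] {p : ℕ} [Fact p.Prime]

/-- An element acting quadratically lies in `O_p` of a faithful group without `SL(2,p)` section. -/
theorem SLFree.mem_map_pCore_of_quadratic {H V : Subgroup G} (hfree : SLFree p H) (hp2 : p ≠ 2)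
    (hV : IsElementaryAbelian p V) (hHV : H ≤ Subgroup.normalizer (V : Set G))
    (hf : H ⊓ Subgroup.centralizer (V : Set G) = ⊥) {a : G} (haH : a ∈ H)
    (hq : ⁅⁅V, Subgroup.zpowers a⁆, Subgroup.zpowers a⁆ = ⊥) :
    a ∈ (pCore p H).map H.subtype := by
  have hqa := ThompsonJ.quadratic_zpowers_iff.1 hq
  refine ⟨⟨a, haH⟩, Subnormal.mem_pCore_of_forall_closure_pair fun g => ?_, rfl⟩
  have hqb : ∀ v ∈ V, ⁅⁅v, (g : G) * a * (g : G)⁻¹⁆, (g : G) * a * (g : G)⁻¹⁆ = 1 := by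
    intro v hv
    have h := hqa ((g : G)⁻¹ * v * g) ((Subgroup.mem_normalizer_iff''.1 (hHV g.2) v).1 hv)
    have e : ⁅⁅v, (g : G) * a * (g : G)⁻¹⁆, (g : G) * a * (g : G)⁻¹⁆
        = (g : G) * ⁅⁅(g : G)⁻¹ * v * g, a⁆, a⁆ * (g : G)⁻¹ := by
      simp [commutatorElement_def, mul_assoc]
    rw [e, h]
    simp
  obtain ⟨b, hb⟩ : ∃ b : G, b = (g : G) * a * (g : G)⁻¹ := ⟨_, rfl⟩
  rw [← hb] at hqb
  have hbH : b ∈ H := hb ▸ H.mul_mem (H.mul_mem g.2 haH) (H.inv_mem g.2)
  have hle : Subgroup.closure ({a, b} : Set G) ≤ H :=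
    (Subgroup.closure_le _).2 (by rintro x (rfl | rfl) <;> assumption)
  have hS : SLFree p (Subgroup.closure ({a, b} : Set G)) :=
    hfree.of_injective (Subgroup.inclusion hle) (Subgroup.inclusion_injective hle)
  rintro ⟨x, hx⟩
  have hxG : (x : G) ∈ Subgroup.closure ({a, b} : Set G) := by
    have h1 := Subgroup.mem_map_of_mem H.subtype hx
    rw [MonoidHom.map_closure, Set.image_pair] at h1
    simpa [hb] using h1
  obtain ⟨k, hk⟩ := slFree_quadratic_pair_pow_mem_centralizer hp2 hV.1 hV.2 (hHV haH) (hHV hbH) hS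
    (fun v hv => conj_fix_of_quadratic (hqa v hv)) (fun v hv => conj_fix_of_quadratic (hqb v hv))
    x hxG
  refine ⟨k, Subtype.ext (Subtype.ext ?_)⟩
  have hmem : (x : G) ^ p ^ k ∈ H ⊓ Subgroup.centralizer (V : Set G) := ⟨pow_mem x.2 _, hk⟩
  rw [hf, Subgroup.mem_bot] at hmem
  simpa using hmem

end CfsgLib.PGroups
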