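import Cfsg.Agent.Lib.Amalgams.QdSylow
import Cfsg.Agent.Lib.ConjFunctor.Sections

/-!
In `Qd(p)` no characteristic subgroup functor controls strong fusion.
-/

set_option autoImplicit false
set_option linter.style.haveILetI false

open scoped MatrixGroups
open Cfsg

universe u

namespace CfsgLib.PGroups

variable {p : ℕ} [Fact p.Prime]

theorem centralizer_trans_le {F : Type*} [Field F] :
    Subgroup.centralizer ((Amalgams.Qd.trans : Subgroup (qdOver F)) : Set (qdOver F)) ≤
      Amalgams.Qd.trans := by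
  intro M hM
  obtain ⟨A, a, b, rfl⟩ := Amalgams.Qd.exists_eq_aff M
  refine MonoidHom.mem_ker.2 ?_
  rw [Amalgams.Qd.lin_aff]
  have key : ∀ r s : F, Amalgams.Qd.aff A a b * Amalgams.Qd.aff 1 r s *
      (Amalgams.Qd.aff A a b)⁻¹ = Amalgams.Qd.aff 1 r s := by
    intro r s
    rw [← Subgroup.mem_centralizer_iff.1 hM _ (Amalgams.Qd.mem_trans_iff.2 ⟨r, s, rfl⟩),
      mul_inv_cancel_right]
  have h10 := key 1 0
  have h01 := key 0 1
  rw [Amalgams.Qd.aff_conj_trans, Amalgams.Qd.aff_inj] at h10 h01
  simp at h10 h01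
  refine Matrix.SpecialLinearGroup.ext _ _ fun i j => ?_
  fin_cases i <;> fin_cases j <;> simp [h10, h01]

/-- No isomorphism-invariant functor controls strong fusion in a group isomorphic to `Qd(p)`. -/
theorem not_controlsStrongFusion_qd {W : ∀ (Q : Type u) [Group Q], Subgroup Q}
    (hW : IsCharPFunctor.{u} p W) {X : Type u} [Group X] [Finite X]
    (e : X ≃* qdOver (ZMod p)) (T : Sylow p X) :
    ¬ ControlsStrongFusion p (inducedFunctor W (T : Subgroup X)) := by
  rintro ⟨T', hUT', hctrl⟩
  obtain ⟨U, hU⟩ : ∃ U, U = inducedFunctor W (T : Subgroup X) := ⟨_, rfl⟩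
  rw [← hU] at hctrl
  have hTU : (T : Subgroup X) ≤ Subgroup.normalizer (U : Set X) := by
    intro t ht
    refine ConjFunctor.cj_eq_self_iff.1 ?_
    have h := (ConjFunctor.isConjugacyFunctor_inducedFunctor hW _ T.2).2.2 t
    rw [show (T : Subgroup X).map (MulAut.conj t).toMonoidHom = (T : Subgroup X) from
      ConjFunctor.cj_eq_self_iff.2 (Subgroup.le_normalizer ht)] at h
    exact (hU ▸ h.symm :)
  have hQC : Subgroup.centralizer (pCore p X : Set X) ≤ pCore p X := by
    intro x hx
    rw [← Cores.map_pCore_equiv e.symm, Amalgams.Qd.pCore_qdOver]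
    refine ⟨e x, centralizer_trans_le ?_, e.symm_apply_apply x⟩
    refine Subgroup.mem_centralizer_iff.2 fun y hy => ?_
    have hy' : e.symm y ∈ pCore p X := by
      rw [← Cores.map_pCore_equiv e.symm, Amalgams.Qd.pCore_qdOver]
      exact Subgroup.mem_map_of_mem _ hy
    simpa using congrArg e (Subgroup.mem_centralizer_iff.1 hx _ hy')
  have htop : ∀ g : X, g ∈ Subgroup.normalizer (U : Set X) := by
    intro g
    obtain ⟨x, hx, hxe⟩ := (hctrl (pCore p X : Set X) (Cores.pCore_le_sylow T')).2 g (by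
      rintro _ ⟨a, ha, rfl⟩
      exact Cores.pCore_le_sylow T' (Subgroup.Normal.conj_mem inferInstance a ha g))
    have hmem : x⁻¹ * g ∈ Subgroup.centralizer (pCore p X : Set X) := by
      refine Subgroup.mem_centralizer_iff.2 fun a ha => ?_
      have h := hxe a ha
      calc a * (x⁻¹ * g) = x⁻¹ * (x * a * x⁻¹) * g := by group
        _ = x⁻¹ * (g * a * g⁻¹) * g := by rw [h]
        _ = x⁻¹ * g * a := by group
    have := mul_mem hx (hTU (Cores.pCore_le_sylow T (hQC hmem)))
    rwa [mul_inv_cancel_left] at this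
  let S₀ : Sylow p (qdOver (ZMod p)) := T.mapSurjective (f := e.toMonoidHom) e.surjective
  obtain ⟨S', hS'⟩ : ∃ S' : Subgroup (qdOver (ZMod p)), S' = (S₀ : Subgroup _) := ⟨_, rfl⟩
  -- carry the value of the functor to the standard copy
  let eT : (T : Subgroup X) ≃* (S₀ : Subgroup (qdOver (ZMod p))) :=
    ((T : Subgroup X).equivMapOfInjective e.toMonoidHom e.injective).trans
      (MulEquiv.subgroupCongr (Sylow.coe_mapSurjective _ T).symm)
  let T₀ : Subgroup (S₀ : Subgroup (qdOver (ZMod p))) := (W (T : Subgroup X)).map eT.toMonoidHom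
  haveI : Nontrivial (T : Subgroup X) := by
    refine (Subgroup.nontrivial_iff_ne_bot _).2 (T.ne_bot_of_dvd_card ?_)
    rw [Nat.card_congr e.toEquiv, Amalgams.Qd.card_qdOver, Nat.card_zmod]
    exact dvd_mul_left p _
  have hne : T₀ ≠ ⊥ := fun h =>
    hW.1 (T : Subgroup X) T.2 inferInstance ((Subgroup.map_eq_bot_iff_of_injective _ eT.injective).1 h)
  have hchar : T₀.Characteristic := by
    refine Subgroup.characteristic_iff_map_eq.2 fun φ => ?_
    have h := hW.2 (T : Subgroup X) (T : Subgroup X) T.2 ((eT.trans φ).trans eT.symm)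
    calc T₀.map φ.toMonoidHom
        = ((W (T : Subgroup X)).map ((eT.trans φ).trans eT.symm).toMonoidHom).map eT.toMonoidHom := by
          rw [Subgroup.map_map, Subgroup.map_map]
          congr 1
          ext x
          simp
      _ = T₀ := by rw [h]
  obtain ⟨h1, h2⟩ := Amalgams.Qd.normalizer_characteristic S₀ T₀ hne hchar
  refine h2 ?_
  rw [← h1, eq_top_iff]
  intro y _
  have hy := htop (e.symm y)
  have hmap : T₀.map (S₀ : Subgroup (qdOver (ZMod p))).subtype = U.map e.toMonoidHom := by
    rw [hU, inducedFunctor, Subgroup.map_map, Subgroup.map_map]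
    congr 1
  rw [hmap]
  have := Subgroup.le_normalizer_map e.toMonoidHom ⟨e.symm y, hy, rfl⟩
  simpa using this

end CfsgLib.PGroups
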